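import Mathlib
import Cfsg.Prelude.Def_JordanBlocks
import Cfsg.Prelude.Def_Classical
import Cfsg.Agent.H174.JordanMatrix
import Cfsg.Agent.H174.JordanBase

/-!
Helper results for S2582, S2583, S2584.
-/

set_option autoImplicit false

namespace Cfsg.Agent.H174

open Module

universe u

/-- the matrices of one map in two bases are conjugate -/
theorem isConj_toMatrix {F V : Type*} [Field F] [AddCommGroup V] [Module F V] {ι n : Type*} [Fintype ι]
    [DecidableEq ι] [Fintype n] [DecidableEq n] (b : Basis ι F V) (c : Basis n F V) (e : ι ≃ n)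
    (u : V →ₗ[F] V) :
    IsConj (Matrix.reindex e e (LinearMap.toMatrix b b u)) (LinearMap.toMatrix c c u) := by
  have h1 : Matrix.reindex e e (LinearMap.toMatrix b b u) =
      LinearMap.toMatrix (b.reindex e) (b.reindex e) u := by
    ext i j
    simp [LinearMap.toMatrix_apply]
  rw [h1]
  refine ⟨⟨c.toMatrix (b.reindex e), (b.reindex e).toMatrix c,
    Basis.toMatrix_mul_toMatrix_flip _ _, Basis.toMatrix_mul_toMatrix_flip _ _⟩, ?_⟩
  change c.toMatrix (b.reindex e) * LinearMap.toMatrix (b.reindex e) (b.reindex e) u =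
    LinearMap.toMatrix c c u * c.toMatrix (b.reindex e)
  rw [basis_toMatrix_mul_linearMap_toMatrix, linearMap_toMatrix_mul_basis_toMatrix]

/-- an invertible matrix as a linear equivalence -/
theorem exists_equiv_of_isUnit {F : Type*} [Field F] {n : Type*} [Fintype n] [DecidableEq n]
    {A : Matrix n n F} (hA : IsUnit A) :
    ∃ g : (n → F) ≃ₗ[F] (n → F), (∀ x, g x = A.mulVec x) ∧ nil g = Matrix.toLin' A - LinearMap.id := by
  obtain ⟨P, rfl⟩ := hA
  refine ⟨Matrix.toLin'OfInv (M := ((P⁻¹ : (Matrix n n F)ˣ) : Matrix n n F))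
    (M' := (P : Matrix n n F)) (by simp) (by simp), fun x => rfl, rfl⟩

theorem card_filter_eq_count {t : ℕ} (d : Fin t → ℕ) (j : ℕ) :
    (Finset.univ.filter (fun k : Fin t => d k = j)).card = (Finset.univ.val.map d).count j := by
  rw [Multiset.count_map, Finset.card_def, Finset.filter_val]
  simp only [eq_comm]

/-- the `ε`-form as a bilinear form -/
def epsForm {F : Type u} [Field F] (ε : F) {V : Type u} [AddCommGroup V] [Module F V]
    (f : V →ₗ[F] V →ₗ[F] F) : LinearMap.BilinForm F V := f + ε • f.flip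

theorem epsForm_apply {F : Type u} [Field F] (ε : F) {V : Type u} [AddCommGroup V] [Module F V]
    (f : V →ₗ[F] V →ₗ[F] F) (x y : V) : epsForm ε f x y = f x y + ε * f y x := rfl

/-! ### necessity -/

theorem even_symp {F : Type u} [Field F] {n : Type*} [Fintype n] [DecidableEq n] {t : ℕ} {d : Fin t → ℕ}
    (e : ((k : Fin t) × Fin (d k)) ≃ n) {A : Matrix n n F} (hA : IsUnit A)
    (h : IsConj (Matrix.reindex e e (Cfsg.jordanTypeMatrix d F)) A)
    {B : LinearMap.BilinForm F (n → F)} (hB : ∀ x y, B (A.mulVec x) (A.mulVec y) = B x y)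
    (hnd : B.Nondegenerate) (halt : B.IsAlt) (j : ℕ) (hj : Odd j) :
    Even (Finset.univ.filter (fun k : Fin t => d k = j)).card := by
  obtain ⟨g, hg, hg2⟩ := exists_equiv_of_isUnit hA
  obtain ⟨b, hb⟩ := exists_isJB_of_isConj e h
  rw [← hg2] at hb
  obtain ⟨s, rfl⟩ : ∃ s, j = s + 1 := ⟨j - 1, by have := hj.pos; omega⟩
  have hB' : ∀ x y, B (g x) (g y) = B x y := fun x y => by rw [hg, hg, hB]
  have hs : Even s := by
    rw [Nat.odd_add_one, Nat.not_odd_iff_even] at hj
    exact hj
  exact even_card hB' hnd s (fun x hx => form_self_symp hB' halt hs x hx) hb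

theorem even_orth {F : Type u} [Field F] {n : Type*} [Fintype n] [DecidableEq n] {t : ℕ} {d : Fin t → ℕ}
    (e : ((k : Fin t) × Fin (d k)) ≃ n) {A : Matrix n n F} (hA : IsUnit A)
    (h : IsConj (Matrix.reindex e e (Cfsg.jordanTypeMatrix d F)) A)
    {B : LinearMap.BilinForm F (n → F)} (hB : ∀ x y, B (A.mulVec x) (A.mulVec y) = B x y)
    (hnd : B.Nondegenerate) (hsym : ∀ x y, B x y = B y x) (h2 : (2 : F) ≠ 0) (j : ℕ) (hj0 : 0 < j)
    (hj : Even j) :
    Even (Finset.univ.filter (fun k : Fin t => d k = j)).card := by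
  obtain ⟨g, hg, hg2⟩ := exists_equiv_of_isUnit hA
  obtain ⟨b, hb⟩ := exists_isJB_of_isConj e h
  rw [← hg2] at hb
  obtain ⟨s, rfl⟩ : ∃ s, j = s + 1 := ⟨j - 1, by omega⟩
  have hB' : ∀ x y, B (g x) (g y) = B x y := fun x y => by rw [hg, hg, hB]
  have hs : Odd s := by
    rw [Nat.even_add_one, Nat.not_even_iff_odd] at hj
    exact hj
  exact even_card hB' hnd s (fun x hx => form_self_orth hB' hsym h2 hs x hx) hb

/-! ### existence -/

theorem realized_symp (F : Type u) [Field F] (h2 : (2 : F) ≠ 0) {t : ℕ} (d : Fin t → ℕ)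
    (hd : ∀ k, 1 ≤ d k)
    (h : ∀ j : ℕ, Odd j → Even (Finset.univ.filter (fun k : Fin t => d k = j)).card) :
    Realized F (-1) (Finset.univ.val.map d) := by
  refine realized_of F (by simp) (fun j => Even j) ?_ _ ?_ ?_
  · intro j hj0 hj
    obtain ⟨k, rfl⟩ := hj
    have := (block_symp F h2 (k - 1)).realized
    rwa [show 2 * (k - 1) + 1 + 1 = k + k by omega] at this
  · intro j hj
    obtain ⟨k, _, rfl⟩ := Multiset.mem_map.1 hj
    exact hd k
  · intro j hj _
    rw [← card_filter_eq_count]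
    exact h j (Nat.not_even_iff_odd.1 hj)

theorem realized_char_two (F : Type u) [Field F] (h2 : (2 : F) = 0) {t : ℕ} (d : Fin t → ℕ)
    (hd : ∀ k, 1 ≤ d k)
    (h : ∀ j : ℕ, Odd j → Even (Finset.univ.filter (fun k : Fin t => d k = j)).card) :
    Realized F 1 (Finset.univ.val.map d) := by
  refine realized_of F (by simp) (fun j => Even j) ?_ _ ?_ ?_
  · intro j hj0 hj
    obtain ⟨k, rfl⟩ := hj
    have := (block_char_two F h2 (k - 1)).realized
    rwa [show 2 * (k - 1) + 1 + 1 = k + k by omega] at this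
  · intro j hj
    obtain ⟨k, _, rfl⟩ := Multiset.mem_map.1 hj
    exact hd k
  · intro j hj _
    rw [← card_filter_eq_count]
    exact h j (Nat.not_even_iff_odd.1 hj)

theorem realized_orth (F : Type u) [Field F] (h2 : (2 : F) ≠ 0) {t : ℕ} (d : Fin t → ℕ)
    (hd : ∀ k, 1 ≤ d k)
    (h : ∀ j : ℕ, Even j → 0 < j → Even (Finset.univ.filter (fun k : Fin t => d k = j)).card) :
    Realized F 1 (Finset.univ.val.map d) := by
  refine realized_of F (by simp) (fun j => Odd j) ?_ _ ?_ ?_
  · intro j hj0 hj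
    obtain ⟨k, rfl⟩ := hj
    exact (block_orth F h2 k).realized
  · intro j hj
    obtain ⟨k, _, rfl⟩ := Multiset.mem_map.1 hj
    exact hd k
  · intro j hj hj0
    rw [← card_filter_eq_count]
    exact h j (Nat.not_odd_iff_even.1 hj) hj0

/-- a realized type in an orthogonal group, in matrix form -/
theorem exists_quadratic {F : Type u} [Field F] {n t : ℕ} (d : Fin t → ℕ) (hsum : ∑ k, d k = n)
    (h : Realized F 1 (Finset.univ.val.map d)) :
    ∃ Q : QuadraticForm F (Fin n → F), (QuadraticMap.polarBilin Q).Nondegenerate ∧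
      ∃ e : ((k : Fin t) × Fin (d k)) ≃ Fin n, ∃ A : ↥(Cfsg.isometryGroup F ⇑Q),
        IsConj (Matrix.reindex e e (Cfsg.jordanTypeMatrix d F))
          ((A : Matrix.GeneralLinearGroup (Fin n) F) : Matrix (Fin n) (Fin n) F) := by
  classical
  obtain ⟨V, _, _, f, g, hfd, hf, hJ⟩ := h
  obtain ⟨b, hb⟩ := hJ.exists_basis
  have hcard : Fintype.card ((k : Fin t) × Fin (d k)) = n := by
    rw [Fintype.card_sigma]
    simpa using hsum
  let e : ((k : Fin t) × Fin (d k)) ≃ Fin n := Fintype.equivFinOfCardEq hcard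
  let c : Basis (Fin n) F V := b.reindex e
  let ψ : V ≃ₗ[F] (Fin n → F) := c.equivFun
  let f' : LinearMap.BilinForm F (Fin n → F) := f.compl₁₂ ψ.symm.toLinearMap ψ.symm.toLinearMap
  have hf' : ∀ x y, f' x y = f (ψ.symm x) (ψ.symm y) := fun x y => rfl
  let Q : QuadraticForm F (Fin n → F) := f'.toQuadraticMap
  have hQ : ∀ x, Q x = f (ψ.symm x) (ψ.symm x) := fun x => rfl
  have hpol : ∀ x y, QuadraticMap.polarBilin Q x y = f (ψ.symm x) (ψ.symm y) + f (ψ.symm y) (ψ.symm x) := by
    intro x y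
    rw [QuadraticMap.polarBilin_apply_apply, QuadraticMap.polar, hQ, hQ, hQ]
    simp only [map_add, LinearMap.add_apply]
    ring
  have hsymm : (QuadraticMap.polarBilin Q).IsSymm :=
    ⟨fun x y => by rw [hpol, hpol]; simp [add_comm]⟩
  have hmat : ∀ x, (LinearMap.toMatrix c c g.toLinearMap).mulVec x = ψ (g (ψ.symm x)) := by
    intro x
    have h1 := LinearMap.toMatrix_mulVec_repr c c g.toLinearMap (ψ.symm x)
    have h2 : ((c.repr (ψ.symm x) : Fin n →₀ F) : Fin n → F) = x := by
      change ψ (ψ.symm x) = x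
      exact ψ.apply_symm_apply x
    rw [h2] at h1
    exact h1
  have hmat' : ∀ x, (LinearMap.toMatrix c c g.symm.toLinearMap).mulVec x = ψ (g.symm (ψ.symm x)) := by
    intro x
    have h1 := LinearMap.toMatrix_mulVec_repr c c g.symm.toLinearMap (ψ.symm x)
    have h2 : ((c.repr (ψ.symm x) : Fin n →₀ F) : Fin n → F) = x := by
      change ψ (ψ.symm x) = x
      exact ψ.apply_symm_apply x
    rw [h2] at h1
    exact h1
  let A : Matrix.GeneralLinearGroup (Fin n) F :=
    ⟨LinearMap.toMatrix c c g.toLinearMap, LinearMap.toMatrix c c g.symm.toLinearMap,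
      by rw [← LinearMap.toMatrix_comp]; simp, by rw [← LinearMap.toMatrix_comp]; simp⟩
  refine ⟨Q, ?_, e, ⟨A, ?_⟩, ?_⟩
  · rw [LinearMap.IsRefl.nondegenerate_iff_separatingLeft hsymm.isRefl]
    intro x hx
    have h1 : ψ.symm x = 0 := by
      apply hf.sep
      intro y
      have := hx (ψ y)
      rw [hpol, ψ.symm_apply_apply] at this
      rw [one_mul]
      exact this
    exact (LinearEquiv.map_eq_zero_iff ψ.symm).1 h1
  · intro x _
    change Q ((LinearMap.toMatrix c c g.toLinearMap).mulVec x) = Q x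
    rw [hmat, hQ, hQ, ψ.symm_apply_apply]
    exact hf.quad rfl _
  · have h1 : LinearMap.toMatrix b b g.toLinearMap = Cfsg.jordanTypeMatrix d F :=
      toMatrix_of_isJB hb
    rw [← h1]
    exact isConj_toMatrix b c e _

/-- a realized type in a symplectic group, in matrix form -/
theorem exists_symplectic {F : Type u} [Field F] {m t : ℕ} (d : Fin t → ℕ) (hsum : ∑ k, d k = 2 * m)
    {ε : F} (h : Realized F ε (Finset.univ.val.map d)) (hε : ε = -1) :
    ∃ e : ((k : Fin t) × Fin (d k)) ≃ (Fin m ⊕ Fin m), ∃ A : Matrix.symplecticGroup (Fin m) F,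
      IsConj (Matrix.reindex e e (Cfsg.jordanTypeMatrix d F))
        (A : Matrix (Fin m ⊕ Fin m) (Fin m ⊕ Fin m) F) := by
  classical
  obtain ⟨V, _, _, f, g, hfd, hf, hJ⟩ := h
  obtain ⟨b, hb⟩ := hJ.exists_basis
  have hcard : Fintype.card ((k : Fin t) × Fin (d k)) = 2 * m := by
    rw [Fintype.card_sigma]
    simpa using hsum
  let B := epsForm ε f
  have hBalt : B.IsAlt := by
    intro x
    change epsForm ε f x x = 0
    rw [epsForm_apply, hε]
    ring
  obtain ⟨m', k, c, h1, h2, h3, h4⟩ := Cfsg.Agent.S0752.result B hBalt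
  have hk : IsEmpty (Fin k) := by
    constructor
    intro j
    have h5 : c (Sum.inr j) = 0 := hf.sep _ fun y => h4 j y
    exact c.ne_zero _ h5
  have hk0 : k = 0 := by
    rcases Nat.eq_zero_or_pos k with h | h
    · exact h
    · exact (hk.false ⟨0, h⟩).elim
  subst hk0
  have hdim : Fintype.card ((k : Fin t) × Fin (d k)) = m' + m' := by
    rw [← finrank_eq_card_basis b, finrank_eq_card_basis c]
    simp
  obtain rfl : m' = m := by omega
  let c' : Basis (Fin m' ⊕ Fin m') F V := c.reindex (Equiv.sumEmpty _ _)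
  have hc' : ∀ i, c' i = c (Sum.inl i) := fun i => by
    simp [c']
  let e : ((k : Fin t) × Fin (d k)) ≃ (Fin m' ⊕ Fin m') := b.indexEquiv c'
  have hmat : LinearMap.toMatrix b b g.toLinearMap = Cfsg.jordanTypeMatrix d F := toMatrix_of_isJB hb
  have hJm : LinearMap.BilinForm.toMatrix c' B = - Matrix.J (Fin m') F := by
    ext i j
    rw [LinearMap.BilinForm.toMatrix_apply, hc', hc']
    rcases i with (i | i) <;> rcases j with (j | j)
    · rw [h2]; simp [Matrix.J]
    · rw [h1]; simp [Matrix.J, Matrix.one_apply]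
    · rw [← hBalt.neg_eq, h1]
      simp [Matrix.J, Matrix.one_apply, eq_comm]
    · rw [h3]; simp [Matrix.J]
  have hiso : (LinearMap.toMatrix c' c' g.toLinearMap).transpose * Matrix.J (Fin m') F *
      LinearMap.toMatrix c' c' g.toLinearMap = Matrix.J (Fin m') F := by
    have h5 : LinearMap.BilinForm.comp B g.toLinearMap g.toLinearMap = B := by
      ext x y
      exact hf.isom x y
    have h6 := congrArg (LinearMap.BilinForm.toMatrix c') h5
    rw [LinearMap.BilinForm.toMatrix_comp (b := c') (c := c'), hJm] at h6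
    simpa using h6
  refine ⟨e, ⟨LinearMap.toMatrix c' c' g.toLinearMap, ?_⟩, ?_⟩
  · rw [SymplecticGroup.mem_iff']
    exact hiso
  · rw [← hmat]
    exact isConj_toMatrix b c' e _

end Cfsg.Agent.H174
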