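import Mathlib
import Cfsg.Agent.H174.JordanSum

/-!
Realizing unipotent Jordan types in isometry groups.

`(f, ε)` : the form `B x y = f x y + ε f y x` and, for `ε = 1`, the quadratic form `f x x`.
-/

set_option autoImplicit false

namespace Cfsg.Agent.H174

open Module

universe u

/-- the data of an isometry `g` of the `ε`-form of `f`. -/
structure IsIsom {F : Type u} [Field F] (ε : F) {V : Type u} [AddCommGroup V] [Module F V]
    (f : V →ₗ[F] V →ₗ[F] F) (g : V ≃ₗ[F] V) : Prop where
  sep : ∀ x, (∀ y, f x y + ε * f y x = 0) → x = 0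
  isom : ∀ x y, f (g x) (g y) + ε * f (g y) (g x) = f x y + ε * f y x
  quad : ε = 1 → ∀ x, f (g x) (g x) = f x x

/-- Jordan type `s` is realized by an isometry of an `ε`-form -/
def Realized (F : Type u) [Field F] (ε : F) (s : Multiset ℕ) : Prop :=
  ∃ (V : Type u) (_ : AddCommGroup V) (_ : Module F V) (f : V →ₗ[F] V →ₗ[F] F) (g : V ≃ₗ[F] V),
    FiniteDimensional F V ∧ IsIsom ε f g ∧ IsJT (nil g) s

theorem Realized.zero (F : Type u) [Field F] (ε : F) : Realized F ε 0 :=
  ⟨PUnit.{u + 1}, inferInstance, inferInstance, 0, LinearEquiv.refl F PUnit.{u + 1}, inferInstance,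
    ⟨fun _ _ => rfl, fun _ _ => rfl, fun _ _ => rfl⟩, IsJT.zero _⟩

/-- the orthogonal sum of two bilinear maps -/
def sumForm {F : Type u} [Field F] {V V' : Type u} [AddCommGroup V] [Module F V] [AddCommGroup V']
    [Module F V'] (f : V →ₗ[F] V →ₗ[F] F) (f' : V' →ₗ[F] V' →ₗ[F] F) :
    (V × V') →ₗ[F] (V × V') →ₗ[F] F :=
  LinearMap.mk₂ F (fun p q => f p.1 q.1 + f' p.2 q.2)
    (by intro a b c; simp; ring) (by intro a b c; simp; ring) (by intro a b c; simp; ring)
    (by intro a b c; simp; ring)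

theorem Realized.add {F : Type u} [Field F] {ε : F} {s s' : Multiset ℕ} (h : Realized F ε s)
    (h' : Realized F ε s') : Realized F ε (s + s') := by
  obtain ⟨V, _, _, f, g, hV, hf, hJ⟩ := h
  obtain ⟨V', _, _, f', g', hV', hf', hJ'⟩ := h'
  refine ⟨V × V', inferInstance, inferInstance, sumForm f f', LinearEquiv.prodCongr g g',
    inferInstance, ⟨?_, ?_, ?_⟩, ?_⟩
  · rintro ⟨x, x'⟩ hx
    have h1 : x = 0 := hf.sep x fun y => by simpa [sumForm] using hx (y, 0)
    have h2 : x' = 0 := hf'.sep x' fun y => by simpa [sumForm] using hx (0, y)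
    rw [h1, h2]; rfl
  · rintro ⟨x, x'⟩ ⟨y, y'⟩
    have h1 := hf.isom x y
    have h2 := hf'.isom x' y'
    simp only [sumForm, LinearMap.mk₂_apply, LinearEquiv.prodCongr_apply]
    linear_combination h1 + h2
  · rintro hε ⟨x, x'⟩
    have h1 := hf.quad hε x
    have h2 := hf'.quad hε x'
    simp only [sumForm, LinearMap.mk₂_apply, LinearEquiv.prodCongr_apply]
    linear_combination h1 + h2
  · have : nil (LinearEquiv.prodCongr g g') = (nil g).prodMap (nil g') := by
      ext x <;> simp [nil_apply]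
    rw [this]
    exact hJ.prod hJ'

theorem Realized.nsmul {F : Type u} [Field F] {ε : F} {s : Multiset ℕ} (h : Realized F ε s) (n : ℕ) :
    Realized F ε (n • s) := by
  induction n with
  | zero => rw [zero_nsmul]; exact Realized.zero F ε
  | succ n ih => rw [succ_nsmul]; exact ih.add h

/-- a single block of size `i + 1` -/
def Block (F : Type u) [Field F] (ε : F) (i : ℕ) : Prop :=
  ∃ (V : Type u) (_ : AddCommGroup V) (_ : Module F V) (f : V →ₗ[F] V →ₗ[F] F) (g : V ≃ₗ[F] V)
    (x : V), FiniteDimensional F V ∧ IsIsom ε f g ∧ finrank F V = i + 1 ∧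
      (∀ v, (nil g ^ (i + 1)) v = 0) ∧
      f ((nil g ^ i) x) x + ε * f x ((nil g ^ i) x) ≠ 0

theorem Block.realized {F : Type u} [Field F] {ε : F} {i : ℕ} (h : Block F ε i) :
    Realized F ε {i + 1} := by
  obtain ⟨V, _, _, f, g, x, hfd, hf, hV, h0, hx⟩ := h
  refine ⟨V, inferInstance, inferInstance, f, g, hfd, hf, IsJT.single hV x ?_ (h0 x)⟩
  intro h
  apply hx
  rw [h]
  simp

/-- the form on `F × V × F` -/
def stepForm {F : Type u} [Field F] {V : Type u} [AddCommGroup V] [Module F V]
    (f : V →ₗ[F] V →ₗ[F] F) : (F × V × F) →ₗ[F] (F × V × F) →ₗ[F] F :=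
  LinearMap.mk₂ F (fun p q => p.1 * q.2.2 + f p.2.1 q.2.1)
    (by intro a b c; simp; ring) (by intro a b c; simp; ring) (by intro a b c; simp; ring)
    (by intro a b c; simp; ring)

/-- the Eichler-type map -/
def stepMap {F : Type u} [Field F] {V : Type u} [AddCommGroup V] [Module F V] (ε : F)
    (f : V →ₗ[F] V →ₗ[F] F) (g : V ≃ₗ[F] V) (w : V) : (F × V × F) →ₗ[F] (F × V × F) where
  toFun p := (p.1 - (f (g p.2.1) w + ε * f w (g p.2.1)) - f w w * p.2.2, g p.2.1 + p.2.2 • w, p.2.2)
  map_add' p q := by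
    ext
    · simp; ring
    · simp [add_smul]; abel
    · simp
  map_smul' c p := by
    ext
    · simp; ring
    · simp [mul_smul]
    · simp

theorem stepMap_injective {F : Type u} [Field F] {V : Type u} [AddCommGroup V] [Module F V] (ε : F)
    (f : V →ₗ[F] V →ₗ[F] F) (g : V ≃ₗ[F] V) (w : V) : Function.Injective (stepMap ε f g w) := by
  rw [← LinearMap.ker_eq_bot, LinearMap.ker_eq_bot']
  rintro ⟨a, v, b⟩ h
  simp only [stepMap, LinearMap.coe_mk, AddHom.coe_mk, Prod.mk_eq_zero] at h
  obtain ⟨h1, h2, h3⟩ := h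
  subst h3
  simp only [zero_smul, add_zero] at h2
  have hv : v = 0 := (LinearEquiv.map_eq_zero_iff g).1 h2
  subst hv
  simp at h1
  rw [h1]; rfl

theorem Block.step {F : Type u} [Field F] {ε : F} (hε : ε * ε = 1) {i : ℕ} (h : Block F ε i) :
    Block F ε (i + 2) := by
  obtain ⟨V, _, _, f, g, w, hfd, hf, hV, h0, hx⟩ := h
  let g' : (F × V × F) ≃ₗ[F] (F × V × F) :=
    LinearEquiv.ofInjectiveEndo (stepMap ε f g w) (stepMap_injective ε f g w)
  have hg' : ∀ p, g' p = (p.1 - (f (g p.2.1) w + ε * f w (g p.2.1)) - f w w * p.2.2,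
      g p.2.1 + p.2.2 • w, p.2.2) := fun p => rfl
  have hnil : ∀ p, nil g' p = (- (f (g p.2.1) w + ε * f w (g p.2.1)) - f w w * p.2.2,
      nil g p.2.1 + p.2.2 • w, 0) := by
    intro p
    rw [nil_apply, hg']
    ext
    · simp; ring
    · simp [nil_apply]; abel
    · simp
  -- iterates
  have hit : ∀ s p, (nil g' ^ (s + 2)) p =
      (- (f (g ((nil g ^ s) (nil g p.2.1 + p.2.2 • w))) w +
        ε * f w (g ((nil g ^ s) (nil g p.2.1 + p.2.2 • w)))),
        (nil g ^ (s + 1)) (nil g p.2.1 + p.2.2 • w), 0) := by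
    intro s
    induction s with
    | zero =>
      intro p
      rw [show (0 + 2) = 1 + 1 by rfl, pow_succ', pow_one, Module.End.mul_apply, hnil (nil g' p), hnil p]
      simp
    | succ s ih =>
      intro p
      rw [show s + 1 + 2 = (s + 2) + 1 by ring, pow_succ', Module.End.mul_apply, ih, hnil]
      simp only [mul_zero, sub_zero, zero_smul, add_zero]
      rw [← Module.End.mul_apply (nil g), ← pow_succ' (nil g)]
  have hfix : ∀ v, g ((nil g ^ i) v) = (nil g ^ i) v := by
    intro v
    have h1 := h0 v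
    rw [pow_succ', Module.End.mul_apply, nil_apply, sub_eq_zero] at h1
    exact h1
  refine ⟨F × V × F, inferInstance, inferInstance, stepForm f, g', (0, 0, 1), inferInstance,
    ⟨?_, ?_, ?_⟩, ?_, ?_, ?_⟩
  · rintro ⟨a, v, b⟩ h
    have h1 := h (0, 0, 1)
    have h2 := h (1, 0, 0)
    have h3 := fun y => h (0, y, 0)
    simp only [stepForm, LinearMap.mk₂_apply, map_zero, LinearMap.zero_apply] at h1 h2 h3
    have hε0 : ε ≠ 0 := by
      rintro rfl
      simp at hε
    have ha : a = 0 := by simpa using h1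
    have hb : b = 0 := by simpa [hε0] using h2
    have hv : v = 0 := hf.sep v fun y => by simpa using h3 y
    rw [ha, hb, hv]; rfl
  · rintro ⟨a, v, b⟩ ⟨a', v', b'⟩
    rw [hg', hg']
    simp only [stepForm, LinearMap.mk₂_apply, map_add, LinearMap.add_apply, map_smul,
      LinearMap.smul_apply, smul_eq_mul]
    have h1 := hf.isom v v'
    linear_combination h1 - b * (f w (g v')) * hε
  · rintro rfl ⟨a, v, b⟩
    rw [hg']
    simp only [stepForm, LinearMap.mk₂_apply, map_add, LinearMap.add_apply, map_smul,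
      LinearMap.smul_apply, smul_eq_mul]
    have h1 := hf.quad rfl v
    linear_combination h1
  · rw [Module.finrank_prod, Module.finrank_prod, hV, Module.finrank_self]
    ring
  · intro p
    rw [show i + 2 + 1 = (i + 1) + 2 by ring, hit, h0]
    rw [show i + 1 + 1 = 1 + (i + 1) by ring, pow_add, Module.End.mul_apply, h0]
    simp
  · have h1 : (nil g' ^ (i + 2)) ((0, 0, 1) : F × V × F) =
        (-(f ((nil g ^ i) w) w + ε * f w ((nil g ^ i) w)), 0, 0) := by
      rw [hit]
      simp only [map_zero, zero_add, one_smul]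
      rw [hfix, h0]
    rw [h1]
    simp only [stepForm, LinearMap.mk₂_apply, map_zero]
    intro h
    apply hx
    simp at h
    linear_combination -h

end Cfsg.Agent.H174
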